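import Cfsg.Agent.H843.IMC.AltK

/-!
# The character of the Schur functor `S_(2,2)` (helper717)

For every character `V` of `G` the function `g ↦ (V(g)^4 + 3 V(g²)² - 4 V(g) V(g³)) / 12` is a character.
-/

set_option autoImplicit false
set_option linter.unusedSectionVars false

namespace Cfsg.Agent.H717.M23

open Cfsg Cfsg.Agent.Characters.Core Cfsg.Agent.H843.IMC
open scoped BigOperators

/-- The row group. -/
def rowL : List (Equiv.Perm (Fin 4)) := [1, Equiv.swap 0 1, Equiv.swap 2 3, Equiv.swap 0 1 * Equiv.swap 2 3]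

/-- The column group. -/
def colL : List (Equiv.Perm (Fin 4) × ℤ) :=
  [(1, 1), (Equiv.swap 0 2, -1), (Equiv.swap 1 3, -1), (Equiv.swap 0 2 * Equiv.swap 1 3, 1)]

/-- The coefficients of twelve times the Young projection. -/
def yc (σ : Equiv.Perm (Fin 4)) : ℤ :=
  (rowL.map fun p => (colL.map fun q => if p * q.1 = σ then q.2 else 0).sum).sum

theorem yc_conv : ∀ σ : Equiv.Perm (Fin 4), ∑ τ : Equiv.Perm (Fin 4), yc τ * yc (τ⁻¹ * σ) = 12 * yc σ := by
  decide +kernel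

/-- The representatives of the classes. -/
def rp : Fin 5 → Equiv.Perm (Fin 4)
  | 0 => 1
  | 1 => Equiv.swap 0 1
  | 2 => Equiv.swap 0 1 * Equiv.swap 2 3
  | 3 => Equiv.swap 0 1 * Equiv.swap 1 2
  | 4 => Equiv.swap 0 1 * Equiv.swap 1 2 * Equiv.swap 2 3

/-- The class of a permutation. -/
def cl (σ : Equiv.Perm (Fin 4)) : Fin 5 :=
  if σ = 1 then 0 else if σ * σ = 1 then (if ∃ t, σ t = t then 1 else 2) else if σ * σ * σ = 1 then 3 else 4

theorem cl_conj : ∀ σ : Equiv.Perm (Fin 4), ∃ τ : Equiv.Perm (Fin 4), τ * σ = rp (cl σ) * τ := by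
  decide +kernel

theorem yc_class : ∀ k : Fin 5, (∑ σ : Equiv.Perm (Fin 4), if cl σ = k then yc σ else 0) =
    (![1, 0, 3, -4, 0] : Fin 5 → ℤ) k := by
  decide +kernel

variable {I : Type*} [Fintype I] [DecidableEq I]

/-- The Young projection of the shape `(2,2)`. -/
noncomputable def yp : Matrix (Fin 4 → I) (Fin 4 → I) ℂ :=
  (12 : ℂ)⁻¹ • ∑ σ : Equiv.Perm (Fin 4), ((yc σ : ℤ) : ℂ) • pm 4 σ

theorem yp_mul_yp : (yp : Matrix (Fin 4 → I) (Fin 4 → I) ℂ) * yp = yp := by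
  have h1 : (∑ σ : Equiv.Perm (Fin 4), ((yc σ : ℤ) : ℂ) • (pm 4 σ : Matrix (Fin 4 → I) (Fin 4 → I) ℂ)) *
      (∑ σ : Equiv.Perm (Fin 4), ((yc σ : ℤ) : ℂ) • pm 4 σ) =
      (12 : ℂ) • ∑ σ : Equiv.Perm (Fin 4), ((yc σ : ℤ) : ℂ) • pm 4 σ := by
    rw [Finset.sum_mul]
    have h2 : ∀ σ : Equiv.Perm (Fin 4), ((yc σ : ℤ) : ℂ) • (pm 4 σ : Matrix (Fin 4 → I) (Fin 4 → I) ℂ) *
        (∑ τ : Equiv.Perm (Fin 4), ((yc τ : ℤ) : ℂ) • pm 4 τ) =
        ∑ τ : Equiv.Perm (Fin 4), ((yc σ * yc (σ⁻¹ * τ) : ℤ) : ℂ) • pm 4 τ := by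
      intro σ
      rw [Finset.mul_sum, ← Equiv.sum_comp (Equiv.mulLeft σ) (fun τ => ((yc σ * yc (σ⁻¹ * τ) : ℤ) : ℂ) • pm 4 τ)]
      refine Finset.sum_congr rfl fun τ _ => ?_
      rw [smul_mul_smul_comm, pm_mul]
      simp only [Equiv.coe_mulLeft, Int.cast_mul, inv_mul_cancel_left]
    rw [Finset.sum_congr rfl fun σ _ => h2 σ, Finset.sum_comm, Finset.smul_sum]
    refine Finset.sum_congr rfl fun τ _ => ?_
    rw [← Finset.sum_smul, ← Int.cast_sum, yc_conv, smul_smul]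
    push_cast
    rfl
  unfold yp
  rw [smul_mul_smul_comm, h1, smul_smul, mul_assoc, inv_mul_cancel₀ (by norm_num : (12 : ℂ) ≠ 0), mul_one]

theorem yp_tpow (A : Matrix I I ℂ) : yp * tpow 4 A = tpow 4 A * yp := by
  unfold yp
  rw [smul_mul_assoc, mul_smul_comm, Finset.sum_mul, Finset.mul_sum]
  congr 1
  refine Finset.sum_congr rfl fun σ _ => ?_
  rw [smul_mul_assoc, mul_smul_comm, pm_tpow]

/-- The trace of a permuted tensor power. -/
noncomputable def tt (A : Matrix I I ℂ) (σ : Equiv.Perm (Fin 4)) : ℂ := Matrix.trace (tpow 4 A * pm 4 σ)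

theorem tt_conj (A : Matrix I I ℂ) {σ ρ τ : Equiv.Perm (Fin 4)} (h : τ * σ = ρ * τ) : tt A σ = tt A ρ := by
  have h1 : σ = τ⁻¹ * (ρ * τ) := by rw [← h, inv_mul_cancel_left]
  unfold tt
  rw [h1, ← pm_mul, ← mul_assoc, ← pm_tpow, mul_assoc, Matrix.trace_mul_comm, mul_assoc, pm_mul]
  rw [mul_inv_cancel_right]

theorem tt_eq (A : Matrix I I ℂ) (σ : Equiv.Perm (Fin 4)) : tt A σ = ∑ i : Fin 4 → I, ∏ t, A (i (σ t)) (i t) := by
  unfold tt
  rw [Matrix.trace_mul_comm, Matrix.trace]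
  refine Finset.sum_congr rfl fun i _ => ?_
  rw [Matrix.diag_apply, Matrix.mul_apply, Finset.sum_eq_single (i ∘ σ)]
  · rw [pm_self, one_mul, tpow_apply]
    rfl
  · intro l _ hl
    rw [pm_ne 4 σ hl, zero_mul]
  · intro h
    exact absurd (Finset.mem_univ _) h

theorem sum4 (f : I → I → I → I → ℂ) : ∑ i : Fin 4 → I, f (i 0) (i 1) (i 2) (i 3) = ∑ a, ∑ b, ∑ c, ∑ d, f a b c d := by
  let e : (I × I × I × I) ≃ (Fin 4 → I) :=
    { toFun := fun p => ![p.1, p.2.1, p.2.2.1, p.2.2.2]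
      invFun := fun i => (i 0, i 1, i 2, i 3)
      left_inv := fun p => rfl
      right_inv := fun i => by
        funext t
        fin_cases t <;> rfl }
  rw [← Equiv.sum_comp e, Fintype.sum_prod_type]
  refine Finset.sum_congr rfl fun a _ => ?_
  rw [Fintype.sum_prod_type]
  refine Finset.sum_congr rfl fun b _ => ?_
  rw [Fintype.sum_prod_type]
  rfl

theorem tt_rp0 (A : Matrix I I ℂ) : tt A (rp 0) = Matrix.trace A ^ 4 := by
  rw [tt_eq]
  have h : ∀ i : Fin 4 → I, ∏ t, A (i (rp 0 t)) (i t) = A (i 0) (i 0) * A (i 1) (i 1) * A (i 2) (i 2) * A (i 3) (i 3) := by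
    intro i
    rw [Fin.prod_univ_four]
    rfl
  rw [Finset.sum_congr rfl fun i _ => h i, sum4 fun a b c d => A a a * A b b * A c c * A d d]
  simp only [Matrix.trace, Matrix.diag_apply]
  rw [show (∑ i, A i i) ^ 4 = (∑ i, A i i) * ((∑ i, A i i) * ((∑ i, A i i) * ∑ i, A i i)) by ring]
  rw [Finset.sum_mul]
  refine Finset.sum_congr rfl fun a _ => ?_
  rw [Finset.sum_mul, Finset.mul_sum]
  refine Finset.sum_congr rfl fun b _ => ?_
  rw [Finset.sum_mul, Finset.mul_sum, Finset.mul_sum]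
  refine Finset.sum_congr rfl fun c _ => ?_
  rw [Finset.mul_sum, Finset.mul_sum, Finset.mul_sum]
  refine Finset.sum_congr rfl fun d _ => ?_
  ring

theorem tt_rp2 (A : Matrix I I ℂ) : tt A (rp 2) = Matrix.trace (A * A) ^ 2 := by
  rw [tt_eq]
  have h : ∀ i : Fin 4 → I, ∏ t, A (i (rp 2 t)) (i t) = A (i 1) (i 0) * A (i 0) (i 1) * A (i 3) (i 2) * A (i 2) (i 3) := by
    intro i
    rw [Fin.prod_univ_four]
    rfl
  rw [Finset.sum_congr rfl fun i _ => h i, sum4 fun a b c d => A b a * A a b * A d c * A c d]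
  simp only [Matrix.trace, Matrix.diag_apply, Matrix.mul_apply]
  rw [sq, Finset.sum_mul]
  refine Finset.sum_congr rfl fun a _ => ?_
  rw [Finset.sum_mul]
  refine Finset.sum_congr rfl fun b _ => ?_
  rw [Finset.mul_sum]
  refine Finset.sum_congr rfl fun c _ => ?_
  rw [Finset.mul_sum]
  refine Finset.sum_congr rfl fun d _ => ?_
  ring

theorem tt_rp3 (A : Matrix I I ℂ) : tt A (rp 3) = Matrix.trace A * Matrix.trace (A * A * A) := by
  rw [tt_eq]
  have h : ∀ i : Fin 4 → I, ∏ t, A (i (rp 3 t)) (i t) = A (i 1) (i 0) * A (i 2) (i 1) * A (i 0) (i 2) * A (i 3) (i 3) := by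
    intro i
    rw [Fin.prod_univ_four]
    rfl
  rw [Finset.sum_congr rfl fun i _ => h i, sum4 fun a b c d => A b a * A c b * A a c * A d d]
  simp only [Matrix.trace, Matrix.diag_apply, Matrix.mul_apply]
  rw [mul_comm, Finset.sum_mul]
  refine Finset.sum_congr rfl fun a _ => ?_
  rw [Finset.sum_mul]
  refine Finset.sum_congr rfl fun b _ => ?_
  rw [Finset.sum_mul, Finset.sum_mul]
  refine Finset.sum_congr rfl fun c _ => ?_
  rw [Finset.mul_sum]
  refine Finset.sum_congr rfl fun d _ => ?_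
  ring

/-- The trace of the Schur functor `S_(2,2)` of a matrix. -/
theorem trace_yp (A : Matrix I I ℂ) : Matrix.trace (tpow 4 A * yp) =
    (Matrix.trace A ^ 4 + 3 * Matrix.trace (A * A) ^ 2 - 4 * Matrix.trace A * Matrix.trace (A * A * A)) / 12 := by
  have h1 : Matrix.trace (tpow 4 A * yp) = (12 : ℂ)⁻¹ * ∑ σ : Equiv.Perm (Fin 4), ((yc σ : ℤ) : ℂ) * tt A (rp (cl σ)) := by
    unfold yp
    rw [mul_smul_comm, Matrix.trace_smul, smul_eq_mul, Finset.mul_sum, Matrix.trace_sum]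
    congr 1
    refine Finset.sum_congr rfl fun σ _ => ?_
    obtain ⟨τ, hτ⟩ := cl_conj σ
    rw [mul_smul_comm, Matrix.trace_smul, smul_eq_mul, ← tt_conj A hτ]
    rfl
  have h2 : ∑ σ : Equiv.Perm (Fin 4), ((yc σ : ℤ) : ℂ) * tt A (rp (cl σ)) =
      ∑ k : Fin 5, (((![1, 0, 3, -4, 0] : Fin 5 → ℤ) k : ℤ) : ℂ) * tt A (rp k) := by
    have h3 : ∀ k : Fin 5, (((![1, 0, 3, -4, 0] : Fin 5 → ℤ) k : ℤ) : ℂ) * tt A (rp k) =
        ∑ σ : Equiv.Perm (Fin 4), if cl σ = k then ((yc σ : ℤ) : ℂ) * tt A (rp (cl σ)) else 0 := by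
      intro k
      rw [← yc_class, Int.cast_sum, Finset.sum_mul]
      refine Finset.sum_congr rfl fun σ _ => ?_
      by_cases h : cl σ = k
      · rw [if_pos h, if_pos h, h]
      · rw [if_neg h, if_neg h, Int.cast_zero, zero_mul]
    rw [Finset.sum_congr rfl fun k _ => h3 k, Finset.sum_comm]
    refine Finset.sum_congr rfl fun σ _ => ?_
    rw [Finset.sum_ite_eq Finset.univ (cl σ), if_pos (Finset.mem_univ _)]
  have h4 : ∑ k : Fin 5, (((![1, 0, 3, -4, 0] : Fin 5 → ℤ) k : ℤ) : ℂ) * tt A (rp k) =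
      tt A (rp 0) + 3 * tt A (rp 2) - 4 * tt A (rp 3) := by
    rw [Fin.sum_univ_five]
    simp only [Matrix.cons_val_zero, Matrix.cons_val_one, Matrix.cons_val]
    push_cast
    ring
  rw [h1, h2, h4, tt_rp0, tt_rp2, tt_rp3]
  ring

theorem isCharacter_yp {G : Type*} [Group G] (A : G →* Matrix I I ℂ) :
    IsCharacter G (fun g => Matrix.trace (tpow 4 (A g) * yp)) := by
  let ρ : Representation ℂ G ((Fin 4 → I) → ℂ) :=
    { toFun := fun g => Matrix.toLin' (tpow 4 (A g))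
      map_one' := by
        rw [map_one, tpow_one, Matrix.toLin'_one]
        rfl
      map_mul' := fun g h => by
        rw [map_mul, tpow_mul, Matrix.toLin'_mul]
        rfl }
  have h := isCharacter_trace_proj ρ (Matrix.toLin' yp) (by
      rw [Module.End.mul_eq_comp, ← Matrix.toLin'_mul, yp_mul_yp]) (fun g => by
      show Matrix.toLin' yp * Matrix.toLin' (tpow 4 (A g)) = Matrix.toLin' (tpow 4 (A g)) * Matrix.toLin' yp
      rw [Module.End.mul_eq_comp, Module.End.mul_eq_comp, ← Matrix.toLin'_mul, ← Matrix.toLin'_mul, yp_tpow])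
  have h2 : (fun g => LinearMap.trace ℂ ((Fin 4 → I) → ℂ) (ρ g * Matrix.toLin' yp)) =
      fun g => Matrix.trace (tpow 4 (A g) * yp) := by
    funext g
    show LinearMap.trace ℂ _ (Matrix.toLin' (tpow 4 (A g)) * Matrix.toLin' yp) = _
    rw [Module.End.mul_eq_comp, ← Matrix.toLin'_mul, Matrix.trace_toLin'_eq]
  rw [← h2]
  exact h

/-- The Schur functor `S_(2,2)` of a character. -/
theorem isCharacter_s22 {G : Type*} [Group G] {V : G → ℂ} (hV : IsCharacter G V) :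
    IsCharacter G (fun g => (V g ^ 4 + 3 * V (g ^ 2) ^ 2 - 4 * V g * V (g ^ 3)) / 12) := by
  obtain ⟨n, ρ, hρ⟩ := hV
  let A : G →* Matrix (Fin n) (Fin n) ℂ :=
    { toFun := fun g => LinearMap.toMatrix' (ρ g)
      map_one' := by
        rw [map_one, Module.End.one_eq_id, LinearMap.toMatrix'_id]
      map_mul' := fun g h => by
        rw [map_mul, Module.End.mul_eq_comp, LinearMap.toMatrix'_comp] }
  have hA : ∀ g, Matrix.trace (A g) = V g := by
    intro g
    rw [← hρ]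
    exact (LinearMap.trace_eq_matrix_trace ℂ (Pi.basisFun ℂ (Fin n)) (ρ g)).symm
  have h := isCharacter_yp A
  have h2 : (fun g => (V g ^ 4 + 3 * V (g ^ 2) ^ 2 - 4 * V g * V (g ^ 3)) / 12) =
      fun g => Matrix.trace (tpow 4 (A g) * yp) := by
    funext g
    rw [trace_yp, ← map_mul, ← map_mul, hA, hA, hA, pow_two g, pow_three' g]
  rw [h2]
  exact h

/-- The value of the Schur functor `S_(2,2)` of the dimension `196883` at the identity. -/
theorem s22_deg : ((196883 : ℂ) ^ 4 + 3 * 196883 ^ 2 - 4 * 196883 * 196883) / 12 = 125213636056146619086 := by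
  norm_num

end Cfsg.Agent.H717.M23
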